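import Mathlib

set_option autoImplicit false

namespace Cfsg.Agent.Lib.Helper82

open Polynomial

namespace GreenK

variable {k A : Type*} [Field k] [Ring A] [Algebra k A]

theorem commute_aeval {j x : A} (h : Commute j x) (f : k[X]) : Commute j (aeval x f) := by
  induction f using Polynomial.induction_on' with
  | add p q hp hq => simpa using hp.add_right hq
  | monomial n a =>
    rw [aeval_monomial]
    exact (Algebra.commute_algebraMap_right a j).mul_right (h.pow_right n)

theorem phi_mul {j x : A} (hj : j * j = j) (h : Commute j x) (f g : k[X]) :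
    j * aeval x (f * g) = (j * aeval x f) * (j * aeval x g) := by
  have h1 := (commute_aeval h f).eq
  rw [map_mul]
  calc j * (aeval x f * aeval x g) = (j * j) * (aeval x f * aeval x g) := by rw [hj]
    _ = j * (j * aeval x f) * aeval x g := by simp only [mul_assoc]
    _ = j * (aeval x f * j) * aeval x g := by rw [h1]
    _ = (j * aeval x f) * (j * aeval x g) := by simp only [mul_assoc]

theorem mul_pow_congr {j u v : A} (hv : Commute j v) (huv : j * u = j * v) (n : ℕ) :
    j * u ^ n = j * v ^ n := by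
  induction n with
  | zero => simp
  | succ n ih =>
    rw [pow_succ, ← mul_assoc, ih, (hv.pow_right n).eq, mul_assoc, huv, ← mul_assoc,
      ← (hv.pow_right n).eq, mul_assoc, ← pow_succ]

theorem mul_aeval_congr {j u v : A} (hv : Commute j v) (huv : j * u = j * v) (f : k[X]) :
    j * aeval u f = j * aeval v f := by
  induction f using Polynomial.induction_on' with
  | add p q hp hq => simp only [map_add, mul_add, hp, hq]
  | monomial n a =>
    rw [aeval_monomial, aeval_monomial, Algebra.commutes a (u ^ n), Algebra.commutes a (v ^ n),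
      ← mul_assoc, ← mul_assoc, mul_pow_congr hv huv n]

/-- abstract core: an element `x` of the corner with `σ x = x - j`. -/
theorem core [IsAlgClosed k] [FiniteDimensional k A] (p : ℕ) [Fact p.Prime] [CharP k p]
    (S : Subalgebra k A) (σ : A ≃ₐ[k] A)
    (hσ : ∀ a ∈ S, (σ^[p]) a = a)
    (j : A) (hjS : j ∈ S) (hj : j * j = j) (hj0 : j ≠ 0) (hσj : σ j = j)
    (x : A) (hxS : x ∈ S) (hc : Commute j x) (hσx : σ x = x - j)
    (hprim : ∀ e ∈ S, e * e = e → σ e = e → j * e = e → e * j = e → e = 0 ∨ e = j) :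
    ∃ l ∈ S, l * l = l ∧ j * l = l ∧ l * j = l ∧
      (∀ i, 0 < i → i < p → l * (σ^[i]) l = 0) ∧ ∑ i ∈ Finset.range p, (σ^[i]) l = j := by
  classical
  have hp : p.Prime := Fact.out
  set φ : k[X] → A := fun f => j * aeval x f with hφ
  have φmul : ∀ f g, φ (f * g) = φ f * φ g := fun f g => phi_mul hj hc f g
  have φadd : ∀ f g, φ (f + g) = φ f + φ g := fun f g => by simp [hφ, mul_add]
  have φone : φ 1 = j := by simp [hφ]
  have φS : ∀ f, φ f ∈ S := by
    intro f
    refine S.mul_mem hjS ?_
    have := Polynomial.aeval_subalgebra_coe f S ⟨x, hxS⟩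
    rw [← this]
    exact (aeval (⟨x, hxS⟩ : S) f).2
  have φj : ∀ f, j * φ f = φ f := fun f => by simp only [hφ, ← mul_assoc, hj]
  have φj' : ∀ f, φ f * j = φ f := fun f => by
    simp only [hφ]
    rw [mul_assoc, ← (commute_aeval hc f).eq, ← mul_assoc, hj]
  -- equivariance
  have hσφ : ∀ f, σ (φ f) = φ (f.comp (X - 1)) := by
    intro f
    simp only [hφ]
    rw [map_mul, hσj, ← Polynomial.aeval_algHom_apply, hσx, aeval_comp]
    have h1 : (aeval x (X - 1 : k[X]) : A) = x - 1 := by simp
    rw [h1]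
    refine mul_aeval_congr (hc.sub_right (Commute.one_right j)) ?_ f
    rw [mul_sub, mul_sub, hj, mul_one]
  have hσi : ∀ (i : ℕ) f, (σ^[i]) (φ f) = φ (f.comp (X - C (i : k))) := by
    intro i
    induction i with
    | zero => intro f; simp
    | succ i ih =>
      intro f
      rw [Function.iterate_succ_apply', ih, hσφ, comp_assoc]
      congr 2
      simp only [sub_comp, X_comp, C_comp, Nat.cast_succ, C_add, C_1]
      ring
  -- minimal polynomial in the corner
  have hex : ∃ d : ℕ, ∃ f : k[X], f ≠ 0 ∧ φ f = 0 ∧ f.natDegree = d := by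
    refine ⟨_, minpoly k x, minpoly.ne_zero (Algebra.IsIntegral.isIntegral x), ?_, rfl⟩
    simp [hφ, minpoly.aeval]
  obtain ⟨m, hm0, hφm, hmd⟩ := Nat.find_spec hex
  have hmin : ∀ f : k[X], f ≠ 0 → φ f = 0 → m.natDegree ≤ f.natDegree := by
    intro f hf0 hf
    rw [hmd]
    exact Nat.find_min' hex ⟨f, hf0, hf, rfl⟩
  have hdeg : m.degree ≠ 0 := by
    intro h
    rw [eq_C_of_degree_eq_zero h] at hφm hm0
    have hc0 : m.coeff 0 ≠ 0 := fun h0 => hm0 (by rw [h0, C_0])
    simp only [hφ, aeval_C] at hφm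
    rw [← Algebra.commutes, ← Algebra.smul_def] at hφm
    exact hj0 ((smul_eq_zero.1 hφm).resolve_left hc0)
  obtain ⟨α, hα⟩ := IsAlgClosed.exists_root m hdeg
  obtain ⟨g, hmg, hnd⟩ := Polynomial.exists_eq_pow_rootMultiplicity_mul_and_not_dvd m hm0 α
  set e := m.rootMultiplicity α with he
  have he1 : 0 < e := (Polynomial.rootMultiplicity_pos hm0).2 hα
  have hg0 : g ≠ 0 := by
    intro h; rw [h, mul_zero] at hmg; exact hm0 hmg
  have hgdeg : g.natDegree < m.natDegree := by
    rw [hmg, natDegree_mul (pow_ne_zero _ (X_sub_C_ne_zero α)) hg0, natDegree_pow,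
      natDegree_X_sub_C]
    omega
  have hcop : IsCoprime ((X - C α) ^ e) g :=
    ((Polynomial.irreducible_X_sub_C α).coprime_iff_not_dvd.2 hnd).pow_left
  obtain ⟨u, v, huv⟩ := hcop
  set L : k[X] := v * g with hL
  set N : k[X] := (X - C α) ^ e with hN
  have hNL : φ (N * L) = 0 := by
    have : N * L = v * m := by rw [hmg, hL]; ring
    rw [this, φmul, hφm, mul_zero]
  have hLL : φ L * φ L = φ L := by
    have h1 : L = u * (N * L) + L * L := by
      calc L = (u * N + L) * L := by rw [huv, one_mul]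
        _ = u * (N * L) + L * L := by ring
    have h2 : φ L = φ (u * (N * L)) + φ (L * L) := by rw [← φadd, ← h1]
    rw [φmul u, hNL, mul_zero, zero_add, φmul L L] at h2
    exact h2.symm
  have hL0 : φ L ≠ 0 := by
    intro h
    have h1 : g = u * m + g * L := by
      calc g = g * (u * N + L) := by rw [huv, mul_one]
        _ = u * m + g * L := by rw [hmg]; ring
    have h2 : φ g = 0 := by
      rw [h1, φadd, φmul u m, φmul g L, hφm, h, mul_zero, mul_zero, add_zero]
    exact absurd (hmin g hg0 h2) (by omega)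
  -- the conjugates
  have hcast : ∀ i m' : ℕ, i < p → m' < p → i ≠ m' → (i : k) - (m' : k) ≠ 0 := by
    intro i m' hi hm' hne h
    exact hne (CharP.natCast_injOn_Iio k p hi hm' (sub_eq_zero.1 h))
  have horth : ∀ i m' : ℕ, i < p → m' < p → i ≠ m' → (σ^[i]) (φ L) * (σ^[m']) (φ L) = 0 := by
    intro i m' hi hm' hne
    rw [hσi, hσi, ← φmul]
    set Li := L.comp (X - C (i : k)) with hLi
    set Lm := L.comp (X - C (m' : k)) with hLm
    set Ni := N.comp (X - C (i : k)) with hNi
    set Nm := N.comp (X - C (m' : k)) with hNm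
    have h1 : φ (Ni * Li) = 0 := by
      rw [hNi, hLi, ← mul_comp, ← hσi, hNL, iterate_map_zero]
    have h2 : φ (Nm * Lm) = 0 := by
      rw [hNm, hLm, ← mul_comp, ← hσi, hNL, iterate_map_zero]
    have hcop2 : IsCoprime Ni Nm := by
      rw [hNi, hNm, hN, pow_comp, pow_comp]
      refine IsCoprime.pow ?_
      have e1 : (X - C α : k[X]).comp (X - C (i : k)) = X - C ((i : k) + α) := by
        simp only [sub_comp, X_comp, C_comp, C_add]; ring
      have e2 : (X - C α : k[X]).comp (X - C (m' : k)) = X - C ((m' : k) + α) := by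
        simp only [sub_comp, X_comp, C_comp, C_add]; ring
      rw [e1, e2]
      refine Polynomial.isCoprime_X_sub_C_of_isUnit_sub ?_
      have : (i : k) + α - ((m' : k) + α) = (i : k) - (m' : k) := by ring
      rw [this]
      exact (hcast i m' hi hm' hne).isUnit
    obtain ⟨r, s, hrs⟩ := hcop2
    have h3 : Li * Lm = (r * Lm) * (Ni * Li) + (s * Li) * (Nm * Lm) := by
      calc Li * Lm = (r * Ni + s * Nm) * (Li * Lm) := by rw [hrs, one_mul]
        _ = _ := by ring
    rw [h3, φadd, φmul (r * Lm), φmul (s * Li), h1, h2, mul_zero, mul_zero, add_zero]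
  have hidem : ∀ i : ℕ, (σ^[i]) (φ L) * (σ^[i]) (φ L) = (σ^[i]) (φ L) := by
    intro i
    rw [← iterate_map_mul, hLL]
  have hSi : ∀ i : ℕ, (σ^[i]) (φ L) ∈ S := fun i => by rw [hσi]; exact φS _
  set E : A := ∑ i ∈ Finset.range p, (σ^[i]) (φ L) with hE
  have hEE : E * E = E := by
    rw [hE, Finset.sum_mul_sum]
    refine Finset.sum_congr rfl fun i hi => ?_
    rw [Finset.sum_eq_single i, hidem]
    · intro b hb hbi
      exact horth i b (Finset.mem_range.1 hi) (Finset.mem_range.1 hb) (Ne.symm hbi)
    · intro h; exact absurd hi h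
  have hσE : σ E = E := by
    rw [hE, map_sum]
    have h1 : ∀ i, σ ((σ^[i]) (φ L)) = (σ^[i + 1]) (φ L) := fun i => by
      rw [Function.iterate_succ_apply']
    simp only [h1]
    have h2 := Finset.sum_range_succ (fun i => (σ^[i]) (φ L)) p
    have h3 := Finset.sum_range_succ' (fun i => (σ^[i]) (φ L)) p
    rw [h3, hσ _ (φS L)] at h2
    simpa using h2
  have hlE : φ L * E = φ L := by
    rw [hE, Finset.mul_sum, Finset.sum_eq_single 0]
    · simpa using hLL
    · intro b hb hb0
      have := horth 0 b hp.pos (Finset.mem_range.1 hb) (Ne.symm hb0)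
      simpa using this
    · intro h; exact absurd (Finset.mem_range.2 hp.pos) h
  have hE0 : E ≠ 0 := by
    intro h; rw [h, mul_zero] at hlE; exact hL0 hlE.symm
  have hjE : j * E = E := by
    rw [hE, Finset.mul_sum]
    refine Finset.sum_congr rfl fun i _ => ?_
    rw [hσi, φj]
  have hEj : E * j = E := by
    rw [hE, Finset.sum_mul]
    refine Finset.sum_congr rfl fun i _ => ?_
    rw [hσi, φj']
  have hES : E ∈ S := S.sum_mem fun i _ => hSi i
  refine ⟨φ L, φS L, hLL, φj L, φj' L, ?_, ?_⟩
  · intro i hi0 hip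
    have := horth 0 i hp.pos hip (by omega)
    simpa using this
  · exact (hprim E hES hEE hσE hjE hEj).resolve_left hE0

end GreenK

/-- Green's indecomposability theorem for an automorphism of order `p`, idempotent form
(Artin-Schreier proof). -/
theorem green_rel {k A : Type*} [Field k] [IsAlgClosed k] (p : ℕ) [Fact p.Prime] [CharP k p]
    [Ring A] [Algebra k A] [FiniteDimensional k A]
    (S : Subalgebra k A) (σ : A ≃ₐ[k] A) (hS : ∀ a ∈ S, σ a ∈ S)
    (hσ : ∀ a ∈ S, (σ^[p]) a = a)
    (j : A) (hjS : j ∈ S) (hj : j * j = j) (hj0 : j ≠ 0) (hσj : σ j = j)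
    (c : A) (hcS : c ∈ S) (hc : ∑ i ∈ Finset.range p, (σ^[i]) c = j)
    (hprim : ∀ e ∈ S, e * e = e → σ e = e → j * e = e → e * j = e → e = 0 ∨ e = j) :
    ∃ l ∈ S, l * l = l ∧ j * l = l ∧ l * j = l ∧
      (∀ i, 0 < i → i < p → l * (σ^[i]) l = 0) ∧ ∑ i ∈ Finset.range p, (σ^[i]) l = j := by
  classical
  have hSi : ∀ (i : ℕ) (a : A), a ∈ S → (σ^[i]) a ∈ S := by
    intro i
    induction i with
    | zero => intro a ha; simpa using ha
    | succ i ih => intro a ha; rw [Function.iterate_succ_apply']; exact hS _ (ih a ha)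
  have hji : ∀ i : ℕ, (σ^[i]) j = j := fun i => Function.iterate_fixed hσj i
  set c' : A := j * c * j with hc'
  have hc'S : c' ∈ S := S.mul_mem (S.mul_mem hjS hcS) hjS
  set g : ℕ → A := fun i => (σ^[i]) c' with hg
  have hgi : ∀ i, g i = j * (σ^[i]) c * j := fun i => by
    simp only [hg, hc', iterate_map_mul, hji]
  have hTr : ∑ i ∈ Finset.range p, g i = j := by
    simp only [hgi]
    rw [← Finset.sum_mul, ← Finset.mul_sum, hc, hj, hj]
  set x : A := ∑ i ∈ Finset.range p, (i : k) • g i with hx
  have hxS : x ∈ S := S.sum_mem fun i _ => S.smul_mem (hSi i c' hc'S) _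
  have hjx : j * x = x := by
    rw [hx, Finset.mul_sum]
    refine Finset.sum_congr rfl fun i _ => ?_
    rw [mul_smul_comm, hgi, ← mul_assoc, ← mul_assoc, hj]
  have hxj : x * j = x := by
    rw [hx, Finset.sum_mul]
    refine Finset.sum_congr rfl fun i _ => ?_
    rw [smul_mul_assoc, hgi, mul_assoc, hj]
  have hcomm : Commute j x := by rw [Commute, SemiconjBy, hjx, hxj]
  have hσx : σ x = x - j := by
    have h1 : σ x = ∑ i ∈ Finset.range p, (i : k) • g (i + 1) := by
      rw [hx, map_sum]
      refine Finset.sum_congr rfl fun i _ => ?_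
      rw [map_smul]
      simp only [hg, Function.iterate_succ_apply']
    have h2 : ∑ i ∈ Finset.range p, (i : k) • g (i + 1)
        = ∑ i ∈ Finset.range p, ((i + 1 : ℕ) : k) • g (i + 1) - ∑ i ∈ Finset.range p, g (i + 1) := by
      rw [← Finset.sum_sub_distrib]
      refine Finset.sum_congr rfl fun i _ => ?_
      rw [Nat.cast_succ, add_smul, one_smul, add_sub_cancel_right]
    have h3 : ∑ i ∈ Finset.range p, ((i + 1 : ℕ) : k) • g (i + 1) = x := by
      have a1 := Finset.sum_range_succ (fun i : ℕ => (i : k) • g i) p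
      have a2 := Finset.sum_range_succ' (fun i : ℕ => (i : k) • g i) p
      rw [a2] at a1
      simpa [CharP.cast_eq_zero k p] using a1
    have h4 : ∑ i ∈ Finset.range p, g (i + 1) = j := by
      have a1 := Finset.sum_range_succ g p
      have a2 := Finset.sum_range_succ' g p
      rw [a2] at a1
      have a3 : g p = g 0 := by simp only [hg, hσ c' hc'S, Function.iterate_zero, id]
      rw [a3, hTr] at a1
      exact add_right_cancel a1
    rw [h1, h2, h3, h4]
  exact GreenK.core p S σ hσ j hjS hj hj0 hσj x hxS hcomm hσx hprim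

end Cfsg.Agent.Lib.Helper82
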