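import Mathlib

/-!
# Operators on functions given by a kernel (for S4647)
-/

set_option autoImplicit false

namespace Cfsg.Agent.Lib.Helper82

open scoped BigOperators

/-- the operator on functions with kernel `K` -/
noncomputable def kerOp {k X : Type*} [Field k] [Fintype X] (K : X → X → k) :
    (X → k) →ₗ[k] (X → k) where
  toFun f := fun y => ∑ x, f x * K x y
  map_add' f g := by
    funext y; simp only [Pi.add_apply, add_mul, Finset.sum_add_distrib]
  map_smul' c f := by
    funext y; simp only [Pi.smul_apply, smul_eq_mul, RingHom.id_apply, Finset.mul_sum, mul_assoc]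

theorem kerOp_apply {k X : Type*} [Field k] [Fintype X] (K : X → X → k) (f : X → k) (y : X) :
    kerOp K f y = ∑ x, f x * K x y := rfl

end Cfsg.Agent.Lib.Helper82
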