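import Mathlib
import Cfsg.Agent.Lib.Helper80.GANilB
import Cfsg.Agent.Lib.Helper56.PermR2

/-!
# Blocks of minimal dimension are nilpotent: the group algebra part
-/

set_option autoImplicit false
set_option linter.unusedSectionVars false
set_option linter.style.haveILetI false

namespace Cfsg.Agent.Lib.Helper82

open scoped BigOperators
open Cfsg.Agent.Lib.Helper80 Cfsg.Agent.Lib.Helper80.GA

universe u v

variable {k : Type v} {G : Type u} [Field k] [Group G] [Fintype G]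

/-- two-sided action of `S × S` on `G` -/
@[reducible] def biAct (S : Subgroup G) : MulAction (S × S) G where
  smul st g := (st.1 : G) * g * (st.2 : G)⁻¹
  one_smul g := by
    show ((1 : S × S).1 : G) * g * (((1 : S × S).2 : S) : G)⁻¹ = g
    simp
  mul_smul a b g := by
    show ((a * b).1 : G) * g * (((a * b).2 : S) : G)⁻¹
      = (a.1 : G) * ((b.1 : G) * g * (b.2 : G)⁻¹) * (a.2 : G)⁻¹
    simp [mul_assoc]

/-- the kernel of right multiplication by `b` -/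
def bK (b : GA k G) : G → G → k := fun x y => b (x⁻¹ * y)

theorem kerOp_bK (b f : GA k G) : kerOp (bK b) f = f * b := rfl

theorem bK_idem {b : GA k G} (hb : b * b = b) (x z : G) :
    ∑ y, bK b x y * bK b y z = bK b x z := by
  have h := congrArg (fun c : GA k G => c (x⁻¹ * z)) hb
  simp only [mul_apply] at h
  unfold bK
  rw [← h]
  refine Fintype.sum_equiv (Equiv.mulLeft x⁻¹) _ _ (fun y => ?_)
  simp only [Equiv.coe_mulLeft, mul_inv_rev, inv_inv]
  rw [mul_assoc y⁻¹ x, mul_inv_cancel_left]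

theorem exists_conj_le_sylow {p : ℕ} [Fact p.Prime] (S : Sylow p G) {Q : Subgroup G}
    (hQ : IsPGroup p Q) : ∃ h : G, ∀ u ∈ Q, h * u * h⁻¹ ∈ (S : Subgroup G) := by
  obtain ⟨S', hS'⟩ := hQ.exists_le_sylow
  obtain ⟨g, hg⟩ := MulAction.exists_smul_eq G S' S
  refine ⟨g, fun u hu => ?_⟩
  rw [← hg, Sylow.coe_subgroup_smul]
  have : g * u * g⁻¹ = MulAut.conj g • u := by simp [MulAut.smul_def]
  rw [this]
  exact Subgroup.smul_mem_pointwise_smul _ _ _ (hS' hu)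


theorem bK_inv {b : GA k G} (hb : FixBy ⊤ b) (S : Subgroup G) (a : S × S) (x y : G) :
    letI := biAct S
    bK b (a • x) (a • y) = bK b x y := by
  show b (((a.1 : G) * x * (a.2 : G)⁻¹)⁻¹ * ((a.1 : G) * y * (a.2 : G)⁻¹)) = b (x⁻¹ * y)
  rw [← hb.apply (Subgroup.mem_top (a.2 : G)) (x⁻¹ * y)]
  congr 1
  group

/-- coprime order argument -/
theorem mem_Cn_of_conj_eq {p : ℕ} [Fact p.Prime] {Q : Subgroup G} {x σ : G} (hx : x ∈ Nn Q)
    (hxo : ¬ p ∣ orderOf x) {j : ℕ} (hσ : σ ^ p ^ j = 1)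
    (h : ∀ u ∈ Q, x * u * x⁻¹ = σ * u * σ⁻¹) : x ∈ Cn Q := by
  have hxQ : ∀ u ∈ Q, x * u * x⁻¹ ∈ Q := fun u hu =>
    (Subgroup.mem_normalizer_iff.1 hx u).1 hu
  have key : ∀ i : ℕ, ∀ u ∈ Q, x ^ i * u * (x ^ i)⁻¹ = σ ^ i * u * (σ ^ i)⁻¹ := by
    intro i
    induction i with
    | zero => intro u _; simp
    | succ i ih =>
      intro u hu
      have h1 := ih _ (hxQ u hu)
      rw [h u hu] at h1
      have h2 : x ^ (i + 1) * u * (x ^ (i + 1))⁻¹ = x ^ i * (σ * u * σ⁻¹) * (x ^ i)⁻¹ := by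
        rw [← h u hu, pow_succ]; group
      rw [h2, h1, pow_succ]; group
  have hcop : Nat.Coprime (p ^ j) (orderOf x) :=
    Nat.Coprime.pow_left j ((Nat.Prime.coprime_iff_not_dvd Fact.out).2 hxo)
  obtain ⟨m, hm⟩ := exists_pow_eq_self_of_coprime hcop
  have h1 : x ^ p ^ j ∈ Cn Q := by
    rw [mem_Cn]
    intro u hu
    have := key (p ^ j) u hu
    rw [hσ] at this
    simp only [one_mul, inv_one, mul_one] at this
    exact (mul_inv_eq_iff_eq_mul.1 this).symm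
  rw [← hm]
  exact (Cn Q).pow_mem h1 m


theorem card_orbit_mul_card_stab {P X : Type*} [Group P] [Finite P] [MulAction P X] (x : X) :
    Nat.card (MulAction.orbit P x) * Nat.card (MulAction.stabilizer P x) = Nat.card P := by
  rw [Nat.card_congr (MulAction.orbitEquivQuotientStabilizer P x),
    ← Subgroup.card_eq_card_quotient_mul_card_subgroup]

/-- **Blocks of minimal dimension are nilpotent** (group algebra form). -/
theorem nilB_of_min_dim {p : ℕ} [Fact p.Prime] [CharP k p] {b : GA k G} (hb : IsBlk ⊤ b)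
    {D : Subgroup G} (hD : IsDef p ⊤ b D) (S : Subgroup G) (hSp : IsPGroup p S)
    (hSyl : ∀ Q : Subgroup G, IsPGroup p Q → ∃ h : G, ∀ u ∈ Q, h * u * h⁻¹ ∈ S)
    (hdim : Module.finrank k (LinearMap.range (kerOp (bK b))) * Nat.card D
      ≤ Nat.card S ^ 2) : NilB p b := by
  classical
  letI := biAct S
  have hsm : ∀ (a : S × S) (g : G),
      a • g = (a.1 : G) * g * (a.2 : G)⁻¹ := fun _ _ => rfl
  have hcardP : Nat.card (S × S) = Nat.card S ^ 2 := by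
    rw [Nat.card_prod, sq]
  have hPp : IsPGroup p (S × S) := by
    obtain ⟨n, hn⟩ := IsPGroup.iff_card.1 hSp
    apply IsPGroup.of_card (n := 2 * n)
    rw [hcardP, hn, ← pow_mul, mul_comm]
  have hfix : FixBy ⊤ b := hb.inZ.2
  have hcl : ∀ x g : G, b (x * g * x⁻¹) = b g := fun x g => hfix.apply (Subgroup.mem_top x) g
  obtain ⟨g1, hg1⟩ : ∃ g, b g ≠ 0 := by
    by_contra hcon
    push Not at hcon
    exact hb.ne_zero (GA.ext hcon)
  obtain ⟨x₀, x₁, hst, hK, hle, hrest⟩ := Cfsg.Agent.Lib.Helper56.Perm.perm_summand.{_, _, _, u} hPp (bK b) (bK_inv hfix _)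
    (bK_idem hb.idem) ⟨1, g1, by simpa [bK] using hg1⟩
  -- the stabiliser is small
  have hstab_le : Nat.card (MulAction.stabilizer (S × S) x₀)
      ≤ Nat.card D := by
    have hmem : ∀ a : S × S, a ∈ MulAction.stabilizer (S × S) x₀ →
        (a.1 : G) = x₀ * (a.2 : G) * x₀⁻¹ ∧ (a.2 : G) * (x₀⁻¹ * x₁) = (x₀⁻¹ * x₁) * (a.2 : G) := by
      intro a ha
      have h0 : (a.1 : G) * x₀ * (a.2 : G)⁻¹ = x₀ := MulAction.mem_stabilizer_iff.1 ha
      have h1 : (a.1 : G) * x₁ * (a.2 : G)⁻¹ = x₁ := by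
        rw [hst] at ha
        exact MulAction.mem_stabilizer_iff.1 ha
      have h2 : (a.1 : G) = x₀ * (a.2 : G) * x₀⁻¹ := by
        rw [eq_mul_inv_iff_mul_eq, ← mul_inv_eq_iff_eq_mul]; exact h0
      refine ⟨h2, ?_⟩
      rw [h2] at h1
      have h3 : x₀ * (a.2 : G) * x₀⁻¹ * x₁ = x₁ * (a.2 : G) := mul_inv_eq_iff_eq_mul.1 h1
      calc (a.2 : G) * (x₀⁻¹ * x₁) = x₀⁻¹ * (x₀ * (a.2 : G) * x₀⁻¹ * x₁) := by group
        _ = x₀⁻¹ * x₁ * (a.2 : G) := by rw [h3]; group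
    obtain ⟨Q', hQ'⟩ : ∃ Q' : Subgroup G, Q' = (MulAction.stabilizer (S × S) x₀).map
      ((S.subtype).comp (MonoidHom.snd S S)) := ⟨_, rfl⟩
    have hQ'p : IsPGroup p Q' := by
      rw [hQ']
      exact (hPp.to_subgroup _).map _
    have hcomm : ∀ t ∈ Q', t * (x₀⁻¹ * x₁) = (x₀⁻¹ * x₁) * t := by
      intro t ht
      rw [hQ'] at ht
      obtain ⟨a, ha, rfl⟩ := ht
      exact (hmem a ha).2
    obtain ⟨x, _, hx⟩ := hD.zd (x₀⁻¹ * x₁) hK Q' le_top hQ'p hcomm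
    calc Nat.card (MulAction.stabilizer (S × S) x₀) ≤ Nat.card Q' := by
          apply Nat.card_le_card_of_injective
            (fun a : MulAction.stabilizer (S × S) x₀ => (⟨(a.1.2 : G), by
              rw [hQ']; exact ⟨a.1, a.2, rfl⟩⟩ : Q'))
          intro a a' haa
          have h2 : (a.1.2 : G) = (a'.1.2 : G) := congrArg (fun z : Q' => (z : G)) haa
          apply Subtype.ext
          apply Prod.ext
          · apply Subtype.ext
            rw [(hmem a.1 a.2).1, (hmem a'.1 a'.2).1, h2]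
          · exact Subtype.ext h2
      _ ≤ Nat.card (cS x D) := Subgroup.card_le_of_le hx
      _ = Nat.card D := card_cS x D
  have hD0 : 0 < Nat.card D := Nat.card_pos
  have hOS := card_orbit_mul_card_stab (P := S × S) x₀
  have hrank : Module.finrank k (LinearMap.range (kerOp (bK b)))
      ≤ Nat.card (MulAction.orbit (S × S) x₀) := by
    rw [hcardP] at hOS
    have h1 : Module.finrank k (LinearMap.range (kerOp (bK b))) * Nat.card D
        ≤ Nat.card (MulAction.orbit (S × S) x₀) * Nat.card D :=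
      calc _ ≤ _ := hdim
        _ = _ := hOS.symm
        _ ≤ _ := Nat.mul_le_mul_left _ hstab_le
    exact Nat.le_of_mul_le_mul_right h1 hD0
  have hfus := hrest hrank
  -- the fusion lemma
  have fusion : ∀ (Q : Subgroup G), IsPGroup p Q → ∀ a₁ a₂ : G,
      (∀ u ∈ Q, a₁ * u * a₁⁻¹ ∈ S) → (∀ u ∈ Q, a₂ * u * a₂⁻¹ ∈ S) →
      ∀ c : G, (∀ u ∈ Q, u * c = c * u) → b c ≠ 0 →
      ∃ g ∈ MulAction.orbit (S × S) x₀,
        ∀ u ∈ Q, (a₁ * u * a₁⁻¹) * g * (a₂ * u * a₂⁻¹)⁻¹ = g := by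
    intro Q hQ a₁ a₂ h1 h2 c hc hbc
    let ι : Q →* S × S :=
      { toFun := fun u => (⟨a₁ * u * a₁⁻¹, h1 u u.2⟩, ⟨a₂ * u * a₂⁻¹, h2 u u.2⟩)
        map_one' := by
          apply Prod.ext <;> apply Subtype.ext <;> simp
        map_mul' := by
          intro u v
          apply Prod.ext <;> apply Subtype.ext <;> simp [mul_assoc] }
    have hι : ∀ (u : Q) (x : G), ι u • x = (a₁ * u * a₁⁻¹) * x * (a₂ * u * a₂⁻¹)⁻¹ :=
      fun _ _ => rfl
    have hm : (fun y => b (a₂ * a₁⁻¹ * y)) ∈ LinearMap.range (kerOp (bK b)) := by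
      refine ⟨(of (a₁ * a₂⁻¹) : GA k G), ?_⟩
      rw [kerOp_bK]
      funext y
      have := of_mul_apply (a₁ * a₂⁻¹) b y
      rw [show (of (a₁ * a₂⁻¹) * b : GA k G) y = b ((a₁ * a₂⁻¹)⁻¹ * y) from this]
      congr 1
      group
    obtain ⟨g, hg, hfixg⟩ := hfus Q hQ ι (fun y => b (a₂ * a₁⁻¹ * y)) hm
      (by
        intro u x
        rw [hι]
        show b _ = b _
        have e1 : a₂ * a₁⁻¹ * ((a₁ * u * a₁⁻¹) * x * (a₂ * u * a₂⁻¹)⁻¹)
            = (a₂ * u) * (a₁⁻¹ * x * a₂) * (a₂ * u)⁻¹ := by group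
        have e2 : a₂ * a₁⁻¹ * x = a₂ * (a₁⁻¹ * x * a₂) * a₂⁻¹ := by group
        rw [e1, e2, hcl, hcl])
      (a₁ * c * a₂⁻¹)
      (by
        intro u
        rw [hι]
        have e1 : (a₁ * u * a₁⁻¹) * (a₁ * c * a₂⁻¹) * (a₂ * u * a₂⁻¹)⁻¹
            = a₁ * ((u : G) * c) * (u : G)⁻¹ * a₂⁻¹ := by group
        rw [e1, hc u u.2]
        group)
      (by
        show b _ ≠ 0
        have e1 : a₂ * a₁⁻¹ * (a₁ * c * a₂⁻¹) = a₂ * c * a₂⁻¹ := by group
        rw [e1, hcl]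
        exact hbc)
    exact ⟨g, hg, fun u hu => hfixg ⟨u, hu⟩⟩
  have exists_coeff : ∀ Q : Subgroup G, br Q b ≠ 0 → ∃ c ∈ Cn Q, b c ≠ 0 := by
    intro Q hbr
    obtain ⟨g, hg⟩ : ∃ g, br Q b g ≠ 0 := by
      by_contra hcon
      push Not at hcon
      exact hbr (GA.ext hcon)
    have hgC : g ∈ Cn Q := by
      by_contra h; exact hg (br_apply_not_mem _ h)
    rw [br_apply_mem _ hgC] at hg
    exact ⟨g, hgC, hg⟩
  -- a point of the orbit centralising a defect group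
  obtain ⟨h, hh⟩ := hSyl D hD.pgroup
  obtain ⟨c₀, hc₀C, hc₀⟩ := exists_coeff D hD.br_ne
  obtain ⟨g₀, hg₀, hg₀fix⟩ := fusion D hD.pgroup h h hh hh c₀ (mem_Cn.1 hc₀C) hc₀
  have horb : MulAction.orbit (S × S) g₀ = MulAction.orbit (S × S) x₀ :=
    MulAction.orbit_eq_iff.2 hg₀
  have hstab₀ : Nat.card (MulAction.stabilizer (S × S) g₀) ≤ Nat.card D := by
    have h1 := card_orbit_mul_card_stab (P := S × S) g₀
    rw [horb, ← hOS] at h1
    have hpos : 0 < Nat.card (MulAction.orbit (S × S) x₀) := by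
      haveI : Nonempty (MulAction.orbit (S × S) x₀) := ⟨⟨x₀, MulAction.mem_orbit_self x₀⟩⟩
      exact Nat.card_pos
    rw [Nat.eq_of_mul_eq_mul_left hpos h1]
    exact hstab_le
  have hdiag : ∀ a ∈ MulAction.stabilizer (S × S) g₀, (a.1 : G) = (a.2 : G) := by
    have hinj : Function.Injective (fun d : D =>
        (⟨(⟨h * d * h⁻¹, hh d d.2⟩, ⟨h * d * h⁻¹, hh d d.2⟩),
          MulAction.mem_stabilizer_iff.2 (hg₀fix d d.2)⟩ : MulAction.stabilizer (S × S) g₀)) := by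
      intro d d' hdd
      have h1 : h * (d : G) * h⁻¹ = h * (d' : G) * h⁻¹ :=
        congrArg (fun z : MulAction.stabilizer (S × S) g₀ => ((z.1.1 : S) : G)) hdd
      apply Subtype.ext
      exact mul_left_cancel (mul_right_cancel h1)
    have hbij := hinj.bijective_of_nat_card_le hstab₀
    intro a ha
    obtain ⟨d, hd⟩ := hbij.2 ⟨a, ha⟩
    have h1 := congrArg (fun z : MulAction.stabilizer (S × S) g₀ => ((z.1.1 : S) : G)) hd
    have h2 := congrArg (fun z : MulAction.stabilizer (S × S) g₀ => ((z.1.2 : S) : G)) hd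
    simp only at h1 h2
    rw [← h1, ← h2]
  -- the main argument
  intro Q f hQf x hx hxo
  have hbr : br Q b ≠ 0 := by
    intro h0
    have := hQf.2.2
    rw [h0, zero_mul] at this
    exact hQf.1.2.ne_zero this.symm
  obtain ⟨c, hcC, hc⟩ := exists_coeff Q hbr
  obtain ⟨h', hh'⟩ := hSyl Q hQf.1.1
  have hxN : x ∈ Nn Q := hx.1
  have hxQ : ∀ u ∈ Q, x * u * x⁻¹ ∈ Q := fun u hu =>
    (Subgroup.mem_normalizer_iff.1 hxN u).1 hu
  have hh'' : ∀ u ∈ Q, (h' * x) * u * (h' * x)⁻¹ ∈ S := by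
    intro u hu
    have := hh' _ (hxQ u hu)
    have e : (h' * x) * u * (h' * x)⁻¹ = h' * (x * u * x⁻¹) * h'⁻¹ := by group
    rw [e]; exact this
  obtain ⟨g, hg, hgfix⟩ := fusion Q hQf.1.1 (h' * x) h' hh'' hh' c (mem_Cn.1 hcC) hc
  rw [← horb] at hg
  obtain ⟨a, rfl⟩ := hg
  obtain ⟨j, hj⟩ := hSp (a.1 * a.2⁻¹)
  have hj' : ((a.1 : G) * (a.2 : G)⁻¹) ^ p ^ j = 1 := by
    have := congrArg (fun t : S => (t : G)) hj
    simpa using this
  apply mem_Cn_of_conj_eq (σ := h'⁻¹ * ((a.1 : G) * (a.2 : G)⁻¹) * h') hxN hxo (j := j)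
  · have e : h'⁻¹ * ((a.1 : G) * (a.2 : G)⁻¹) * h' = h'⁻¹ * ((a.1 : G) * (a.2 : G)⁻¹) * h'⁻¹⁻¹ := by
      rw [inv_inv]
    rw [e, conj_pow, hj']
    group
  · intro u hu
    have h1 := hgfix u hu
    have h1' : (h' * x * u * (h' * x)⁻¹) * ((a.1 : G) * g₀ * (a.2 : G)⁻¹) * (h' * u * h'⁻¹)⁻¹
        = (a.1 : G) * g₀ * (a.2 : G)⁻¹ := h1
    have hmemst : ((a.1⁻¹ * ⟨_, hh'' u hu⟩ * a.1, a.2⁻¹ * ⟨_, hh' u hu⟩ * a.2) : S × S)
        ∈ MulAction.stabilizer (S × S) g₀ := by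
      rw [MulAction.mem_stabilizer_iff]
      show ((a.1 : G)⁻¹ * (h' * x * u * (h' * x)⁻¹) * (a.1 : G)) * g₀
        * ((a.2 : G)⁻¹ * (h' * u * h'⁻¹) * (a.2 : G))⁻¹ = g₀
      calc ((a.1 : G)⁻¹ * (h' * x * u * (h' * x)⁻¹) * (a.1 : G)) * g₀
            * ((a.2 : G)⁻¹ * (h' * u * h'⁻¹) * (a.2 : G))⁻¹
          = (a.1 : G)⁻¹ * ((h' * x * u * (h' * x)⁻¹) * ((a.1 : G) * g₀ * (a.2 : G)⁻¹)
              * (h' * u * h'⁻¹)⁻¹) * (a.2 : G) := by group
        _ = g₀ := by rw [h1']; group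
    have h2 := hdiag _ hmemst
    have h2' : (a.1 : G)⁻¹ * (h' * x * u * (h' * x)⁻¹) * (a.1 : G)
        = (a.2 : G)⁻¹ * (h' * u * h'⁻¹) * (a.2 : G) := h2
    calc x * u * x⁻¹ = h'⁻¹ * (a.1 : G) * ((a.1 : G)⁻¹ * (h' * x * u * (h' * x)⁻¹) * (a.1 : G))
            * (a.1 : G)⁻¹ * h' := by group
      _ = _ := by rw [h2']; group

end Cfsg.Agent.Lib.Helper82
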