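import Mathlib
import Cfsg.Agent.Lib.Helper80.GADef2
import Cfsg.Agent.Lib.Helper20.CharOrth
import Cfsg.Agent.Lib.Helper82.BrCenter
import Cfsg.Agent.Lib.Helper82.MinDim

/-!
# Blocks of minimal dimension are nilpotent: link with characters
-/

set_option autoImplicit false
set_option linter.unusedSectionVars false
set_option linter.style.haveILetI false
open Cfsg
open Cfsg.Agent.Lib.Helper81 Cfsg.Agent.Lib.Helper80 Cfsg.Agent.Lib.Helper21
  Cfsg.Agent.Lib.Helper20

namespace Cfsg.Agent.Lib.Helper82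

variable {p : ℕ} [Fact p.Prime] {M : Ideal AlgInt}
variable {G : Type*} [Group G] [Fintype G]

theorem card_mul_blockCoeff_one (B : Set (IrrCharacter G)) :
    (Fintype.card G : ℂ) * blockCoeff B 1
      = ((∑ᶠ χ ∈ B, charDegree (χ : G → ℂ) ^ 2 : ℕ) : ℂ) := by
  haveI : Finite (IrrCharacter G) := finite_irrCharacter
  have hG : (Fintype.card G : ℂ) ≠ 0 := by
    exact_mod_cast Fintype.card_ne_zero
  unfold blockCoeff
  rw [Nat.card_eq_fintype_card, ← mul_assoc, mul_inv_cancel₀ hG, one_mul]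
  rw [finsum_mem_eq_finite_toFinset_sum _ (Set.toFinite B),
    finsum_mem_eq_finite_toFinset_sum _ (Set.toFinite B)]
  push_cast
  refine Finset.sum_congr rfl (fun χ _ => ?_)
  rw [irr_one_eq]
  simp [pow_two]

theorem finrank_kerOp_blkR_le (hM : IsPModular p M) {B : Set (IrrCharacter G)}
    (hB : IsPBlock M B) :
    Module.finrank (Kr hM) (LinearMap.range (kerOp (bK (blkR hM B))))
      ≤ ∑ᶠ χ ∈ B, charDegree (χ : G → ℂ) ^ 2 := by
  have h1 := finrank_range_mulLeft_red_le hM (RV_blockCoeff hM hB) (Helper80.conv_blockCoeff_self B)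
  have h2 := finrank_range_cL (Helper80.conv_blockCoeff_self B)
  rw [card_mul_blockCoeff_one] at h2
  have h3 : Module.finrank ℂ (LinearMap.range (cL (blockCoeff B)))
      = ∑ᶠ χ ∈ B, charDegree (χ : G → ℂ) ^ 2 := by exact_mod_cast h2
  rw [h3] at h1
  refine le_trans (le_of_eq ?_) h1
  have h4 : (kerOp (bK (blkR hM B)) : (G → Kr hM) →ₗ[Kr hM] (G → Kr hM))
      = LinearMap.mulLeft (Kr hM) (red hM (blockCoeff B)) := by
    apply LinearMap.ext
    intro f
    exact GA.commute_of_suppOn_fixBy (H := ⊤) (a := (f : GA (Kr hM) G))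
      (fun g hg => absurd (Subgroup.mem_top g) hg) (blkR_inZ hM B).2
  rw [h4]
  rfl

end Cfsg.Agent.Lib.Helper82
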