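import Cfsg.Agent.Lib.Helper81.StarIrr
import Cfsg.Agent.Lib.Helper81.KZeroMin
import Cfsg.Agent.Lib.Helper81.BrauerFeit
import Cfsg.Agent.Lib.Helper5.StarAmgm

/-! STAR payoff rung NILPAY: if every generalized character of `P` can be starred into the block
`B` (all subsections being indexed by the classes of `P`), then `Irr(B)` is in bijection with
`Irr(P)` (Broue-Puig). -/

set_option autoImplicit false
set_option linter.unusedSectionVars false
set_option linter.style.haveILetI false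

open Cfsg Cfsg.Agent.Lib.Helper20 Cfsg.Agent.Lib.Helper81
open scoped ComplexConjugate

namespace Cfsg.Agent.Lib.Helper82

section nil

variable {G : Type*} [Group G] [Fintype G] {p : ℕ} {M : Ideal AlgInt}

open Classical in
/-- weighted sum of the contribution numbers over the subsections of `B` -/
noncomputable def nilS (p : ℕ) (M : Ideal AlgInt) (B : Set (IrrCharacter G)) (X : Finset G)
    {P : Subgroup G} (U : ∀ x : G, Set (IrrCharacter (Cx x)) → P)
    [∀ x : G, Fintype (Set (IrrCharacter (Cx x)))] (F : P → ℂ) (χ ψ : G → ℂ) : ℂ :=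
  ∑ x ∈ X, ∑ b : Set (IrrCharacter (Cx x)),
    if IsInducedBlock M (Cx x) b B then F (U x b) * mS p (Cx x) b x χ ψ else 0

variable {B : Set (IrrCharacter G)} {X : Finset G} {P : Subgroup G}
  {U : ∀ x : G, Set (IrrCharacter (Cx x)) → P} [∀ x : G, Fintype (Set (IrrCharacter (Cx x)))]

theorem classInner_star (hM : IsPModular p M) (hB : IsPBlock M B) (hX : PReps p X)
    {χ : IrrCharacter G} (hχ : χ ∈ B) {ψ θ θ' : G → ℂ} {η η' : P → ℂ}
    (h : IsStar p M X (fun x b => η (U x b)) (χ : G → ℂ) θ)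
    (h' : IsStar p M X (fun x b => η' (U x b)) ψ θ') :
    classInner θ θ' = nilS p M B X U (fun u => η u * conj (η' u)) (χ : G → ℂ) ψ := by
  classical
  rw [h.classInner_eq hM hX h']
  unfold nilS
  apply Finset.sum_congr rfl; intro x hx
  apply Finset.sum_congr rfl; intro b _
  by_cases hind : IsInducedBlock M (Cx x) b B
  · rw [if_pos hind, if_pos hind.1]
  · rw [if_neg hind]
    by_cases hb : IsPBlock M b
    · rw [if_pos hb, mS_eq_zero_of_left (fun s hs =>
        Th_eq_zero_of_not_ind hM hB hχ (hX.pow x hx) hb hind hs), mul_zero]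
    · rw [if_neg hb]

theorem nilS_sum {ι : Type*} (S : Finset ι) (c : ι → ℂ) (F : ι → P → ℂ) (χ ψ : G → ℂ) :
    nilS p M B X U (fun u => ∑ i ∈ S, c i * F i u) χ ψ
      = ∑ i ∈ S, c i * nilS p M B X U (F i) χ ψ := by
  classical
  unfold nilS
  simp only [Finset.mul_sum]
  rw [Finset.sum_comm]
  apply Finset.sum_congr rfl; intro x _
  rw [Finset.sum_comm]
  apply Finset.sum_congr rfl; intro b _
  split_ifs
  · rw [Finset.sum_mul]
    apply Finset.sum_congr rfl; intro i _
    ring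
  · simp

theorem nilS_congr {F F' : P → ℂ} (χ ψ : G → ℂ)
    (h : ∀ x ∈ X, ∀ b, IsInducedBlock M (Cx x) b B → F (U x b) = F' (U x b)) :
    nilS p M B X U F χ ψ = nilS p M B X U F' χ ψ := by
  classical
  unfold nilS
  apply Finset.sum_congr rfl; intro x hx
  apply Finset.sum_congr rfl; intro b _
  split_ifs with hind
  · rw [h x hx b hind]
  · rfl

theorem fourier_conj {Q : Type*} [Group Q] [Fintype Q] [Fintype (IrrCharacter Q)] {F : Q → ℂ}
    (hF : IsClassFunction Q F) (u : Q) :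
    F u = ∑ ζ : IrrCharacter Q, ((Nat.card Q : ℂ)⁻¹ * ∑ v, F v * (ζ : Q → ℂ) v) *
      conj ((ζ : Q → ℂ) u) := by
  have hF' : IsClassFunction Q (fun v => conj (F v)) := by
    intro g h
    show conj (F (h * g * h⁻¹)) = conj (F g)
    rw [hF g h]
  have h1 := congrFun (eq_sum_classInner_smul hF') u
  have h2 := congrArg conj h1
  simp only [Complex.conj_conj, Finset.sum_apply, Pi.smul_apply, smul_eq_mul, map_sum, map_mul]
    at h2
  rw [h2]
  apply Finset.sum_congr rfl; intro ζ _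
  congr 1
  unfold classInner
  simp only [map_mul, map_inv₀, Complex.conj_natCast, map_sum, Complex.conj_conj]

variable [Fintype (IrrCharacter P)]

/-- the class function of `P` governing the norms of the stars -/
noncomputable def nilMu (p : ℕ) (M : Ideal AlgInt) (B : Set (IrrCharacter G)) (X : Finset G)
    (U : ∀ x : G, Set (IrrCharacter (Cx x)) → P) (χ ψ : G → ℂ) : P → ℂ :=
  fun u => ∑ ζ : IrrCharacter P,
    nilS p M B X U (fun v => conj ((ζ : P → ℂ) v)) χ ψ * (ζ : P → ℂ) u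

variable [Fintype P]

theorem nilS_eq_mean {F : P → ℂ} (hF : IsClassFunction P F) (χ ψ : G → ℂ) :
    nilS p M B X U F χ ψ = (Nat.card P : ℂ)⁻¹ * ∑ u, F u * nilMu p M B X U χ ψ u := by
  have h1 : F = fun u => ∑ ζ : IrrCharacter P, ((Nat.card P : ℂ)⁻¹ * ∑ v, F v * (ζ : P → ℂ) v) *
      conj ((ζ : P → ℂ) u) := funext (fourier_conj hF)
  conv_lhs => rw [h1]
  rw [nilS_sum]
  unfold nilMu
  simp only [Finset.mul_sum, Finset.sum_mul]
  rw [Finset.sum_comm]
  apply Finset.sum_congr rfl; intro u _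
  apply Finset.sum_congr rfl; intro ζ _
  ring

open Classical in
theorem nilMu_eq (χ ψ : G → ℂ) (u : P) :
    nilMu p M B X U χ ψ u = nilS p M B X U (fun v => if IsConj u v then
      (Nat.card (Subgroup.centralizer ({u} : Set P)) : ℂ) else 0) χ ψ := by
  have h1 : (fun v : P => if IsConj u v then
      (Nat.card (Subgroup.centralizer ({u} : Set P)) : ℂ) else 0)
      = fun v => ∑ ζ : IrrCharacter P, (ζ : P → ℂ) u * conj ((ζ : P → ℂ) v) := by
    funext v
    rw [sum_irr_mul_conj]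
  rw [h1, nilS_sum]
  unfold nilMu
  apply Finset.sum_congr rfl; intro ζ _
  ring

theorem mS_self_real (H : Subgroup G) [Fintype H] (b : Set (IrrCharacter H)) (u : G) (χ : G → ℂ) :
    ∃ r : ℝ, 0 ≤ r ∧ mS p H b u χ χ = (r : ℂ) := by
  classical
  refine ⟨(Nat.card H : ℝ)⁻¹ * ∑ s : H, if IsPRegular p s then Complex.normSq (Th H b u χ s) else 0,
    ?_, ?_⟩
  · apply mul_nonneg (by positivity)
    apply Finset.sum_nonneg; intro s _
    split_ifs
    · exact Complex.normSq_nonneg _
    · exact le_rfl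
  · unfold mS classInner
    push_cast
    congr 1
    apply Finset.sum_congr rfl; intro s _
    rw [pRegularPart_eq]
    by_cases hs : IsPRegular p s
    · simp only [if_pos hs]
      rw [Complex.mul_conj]
    · simp only [if_neg hs, zero_mul, Complex.ofReal_zero]

theorem nilMu_pos (hM : IsPModular p M) (hX : PReps p X) {χ : IrrCharacter G} (hχ : χ ∈ B)
    (h0 : blockHeight p B (χ : G → ℂ) = 0)
    (hcov : ∀ u : P, ∃ x ∈ X, ∃ b, IsInducedBlock M (Cx x) b B ∧ IsConj u (U x b)) (u : P) :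
    ∃ r : ℝ, 0 < r ∧ nilMu p M B X U (χ : G → ℂ) (χ : G → ℂ) u = (r : ℂ) := by
  classical
  rw [nilMu_eq]
  unfold nilS
  have hm : ∀ (x : G) (b : Set (IrrCharacter (Cx x))), ∃ r : ℝ, 0 ≤ r ∧
      mS p (Cx x) b x (χ : G → ℂ) (χ : G → ℂ) = (r : ℂ) := fun x b => mS_self_real _ _ _ _
  choose m hm0 hm using hm
  have hcard : (0 : ℝ) < (Nat.card (Subgroup.centralizer ({u} : Set P)) : ℝ) := by
    exact_mod_cast Nat.card_pos
  refine ⟨∑ x ∈ X, ∑ b : Set (IrrCharacter (Cx x)),
    if IsInducedBlock M (Cx x) b B then (if IsConj u (U x b) then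
      (Nat.card (Subgroup.centralizer ({u} : Set P)) : ℝ) else 0) * m x b else 0, ?_, ?_⟩
  · have hnn : ∀ (x : G) (b : Set (IrrCharacter (Cx x))), (0 : ℝ) ≤
        if IsInducedBlock M (Cx x) b B then (if IsConj u (U x b) then
        (Nat.card (Subgroup.centralizer ({u} : Set P)) : ℝ) else 0) * m x b else 0 := by
      intro x b
      split_ifs
      · exact mul_nonneg hcard.le (hm0 x b)
      · rw [zero_mul]
      · exact le_rfl
    obtain ⟨x, hx, b, hind, hconj⟩ := hcov u
    refine Finset.sum_pos' (fun x _ => Finset.sum_nonneg (fun b _ => hnn x b)) ⟨x, hx, ?_⟩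
    refine Finset.sum_pos' (fun b _ => hnn x b) ⟨b, Finset.mem_univ _, ?_⟩
    rw [if_pos hind, if_pos hconj]
    apply mul_pos hcard
    refine lt_of_le_of_ne (hm0 x b) (fun h => ?_)
    obtain ⟨n, hn⟩ := hX.pow x hx
    have D : SubsecData p M (Cx x) x n b B := ⟨hM, hn, self_mem_Cx x, Cx_comm x, le_rfl, hind⟩
    apply diag_ne_zero_of_height_zero D hχ h0
    rw [hm x b, ← h]
    simp
  · push_cast
    apply Finset.sum_congr rfl; intro x _
    apply Finset.sum_congr rfl; intro b _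
    split_ifs <;> simp [hm x b]

open Classical in
/-- the `p`-regular part is the star concentrated on the trivial section -/
theorem isStar_pReg (hM : IsPModular p M) (hX : PReps p X) {χ : G → ℂ}
    (hχ : IsClassFunction G χ) :
    IsStar p M X (fun x _ => if x = 1 then 1 else 0) χ (pRegularPart p χ) := by
  refine ⟨Cfsg.Agent.Lib.Helper81.pRegularPart_classFunction hχ, fun x hx s hs => ?_⟩
  by_cases hx1 : x = 1
  · subst hx1
    have h2 := (isStar_one hM X hχ).2 1 hx s hs
    simp only [if_true]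
    rw [← h2, pRegularPart_eq]
    have : IsPRegular p ((1 : G) * (s : G)) := by
      unfold IsPRegular at hs ⊢
      rwa [one_mul, Subgroup.orderOf_coe]
    simp only [if_pos this]
  · simp only [if_neg hx1]
    have : Finite (IrrCharacter (Cx x)) := finite_irrCharacter
    rw [Fx_eq, pRegularPart_eq]
    have hns : ¬ IsPRegular p (x * (s : G)) := by
      unfold IsPRegular at hs ⊢
      rw [not_not]
      obtain ⟨k, hk⟩ := hX.pow x hx
      have hk0 : k ≠ 0 := by
        rintro rfl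
        rw [pow_zero, orderOf_eq_one_iff] at hk
        exact hx1 hk
      have hcop : Nat.Coprime (orderOf x) (orderOf (s : G)) := by
        rw [hk, Subgroup.orderOf_coe]
        exact Nat.Coprime.pow_left k ((Nat.Prime.coprime_iff_not_dvd hM.1).2 hs)
      rw [(show Commute x (s : G) from Cx_comm x s).orderOf_mul_eq_mul_orderOf_of_coprime hcop, hk]
      exact Dvd.dvd.mul_right (dvd_pow_self p hk0) _
    simp only [if_neg hns]
    symm
    apply Finset.sum_eq_zero; intro b _
    split_ifs <;> simp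

end nil

theorem nil_payoff {G : Type*} [Group G] [Fintype G] {p : ℕ} [Fact p.Prime] {M : Ideal AlgInt}
    (hM : IsPModular p M) {B : Set (IrrCharacter G)} (hB : IsPBlock M B) {X : Finset G}
    (hX : PReps p X) (P : Subgroup G)
    (U : ∀ x : G, Set (IrrCharacter (Cx x)) → P)
    (hU1 : ∀ b, U 1 b = 1)
    (hU1' : ∀ x ∈ X, ∀ b, IsInducedBlock M (Cx x) b B → U x b = 1 → x = 1)
    (hint : ∀ η : P → ℂ, IsGeneralizedCharacter P η → ∀ χ : IrrCharacter G, χ ∈ B → ∀ θ : G → ℂ,
      IsStar p M X (fun x b => η (U x b)) (χ : G → ℂ) θ → IsGeneralizedCharacter G θ)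
    (hcov : ∀ u : P, ∃ x ∈ X, ∃ b, IsInducedBlock M (Cx x) b B ∧ IsConj u (U x b)) :
    ∃ χ₀ ∈ B, blockHeight p B (χ₀ : G → ℂ) = 0 ∧ ∃ Ψ : IrrCharacter P → IrrCharacter G,
      (∀ ζ, Ψ ζ ∈ B) ∧ Function.Injective Ψ ∧ (∀ χ ∈ B, ∃ ζ, Ψ ζ = χ) ∧
      ∀ ζ : IrrCharacter P, ∀ s : G, IsPRegular p s →
        (Ψ ζ : G → ℂ) s = (ζ : P → ℂ) 1 * (χ₀ : G → ℂ) s := by
  classical
  haveI : ∀ x : G, Finite (IrrCharacter (Cx x)) := fun x => finite_irrCharacter
  haveI : ∀ x : G, Fintype (Set (IrrCharacter (Cx x))) := fun x => Fintype.ofFinite _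
  haveI : Finite (IrrCharacter P) := finite_irrCharacter
  haveI : Fintype (IrrCharacter P) := Fintype.ofFinite _
  obtain ⟨χ₀, hχ₀, hmin⟩ := exists_minDeg (p := p) (isPBlock_nonempty hM hB)
  have h0 : blockHeight p B (χ₀ : G → ℂ) = 0 := (blockHeight_eq_zero_iff hχ₀).2 hmin
  refine ⟨χ₀, hχ₀, h0, ?_⟩
  choose θ hθ using fun ζ : IrrCharacter P =>
    exists_isStar (M := M) hM.1 hX (fun x b => (ζ : P → ℂ) (U x b)) (χ₀ : G → ℂ)
  have hgen : ∀ ζ, IsGeneralizedCharacter G (θ ζ) := fun ζ =>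
    hint ζ (Cfsg.Agent.Lib.Helper32.genChar_of_irr ζ.2) χ₀ hχ₀ _ (hθ ζ)
  have hone : IsStar p M X (fun x b => (fun _ : P => (1 : ℂ)) (U x b)) (χ₀ : G → ℂ) (χ₀ : G → ℂ) :=
    isStar_one hM X (irr_classFunction χ₀)
  have ha : ∀ ζ : IrrCharacter P, ∃ n : ℤ,
      nilS p M B X U (fun v => conj ((ζ : P → ℂ) v)) (χ₀ : G → ℂ) (χ₀ : G → ℂ) = n := by
    intro ζ
    have h1 := classInner_star (U := U) (η := fun _ => 1) (η' := (ζ : P → ℂ)) hM hB hX hχ₀ hone (hθ ζ)
    simp only [one_mul] at h1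
    rw [← h1]
    exact Cfsg.Agent.Lib.Helper32.genChar_inner_int
      (Cfsg.Agent.Lib.Helper32.genChar_of_irr χ₀.2) (hgen ζ)
  choose a ha using ha
  have hμgen : IsGeneralizedCharacter P (nilMu p M B X U (χ₀ : G → ℂ) (χ₀ : G → ℂ)) := by
    have : nilMu p M B X U (χ₀ : G → ℂ) (χ₀ : G → ℂ)
        = ∑ ζ : IrrCharacter P, (a ζ : ℂ) • (ζ : P → ℂ) := by
      funext u
      unfold nilMu
      rw [Finset.sum_apply]
      apply Finset.sum_congr rfl; intro ζ _
      rw [ha ζ, Pi.smul_apply, smul_eq_mul]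
    rw [this]
    exact Cfsg.Agent.Lib.Helper32.genChar_sum _ _ (fun ζ _ =>
      Cfsg.Agent.Lib.Helper32.genChar_intCast_smul (Cfsg.Agent.Lib.Helper32.genChar_of_irr ζ.2) _)
  have hcP : (Nat.card P : ℂ) ≠ 0 := card_ne_zero_complex
  have hmean : ∑ u, nilMu p M B X U (χ₀ : G → ℂ) (χ₀ : G → ℂ) u = (Nat.card P : ℂ) := by
    have h1 := classInner_star (U := U) (η := fun _ => 1) (η' := fun _ => 1) hM hB hX hχ₀ hone hone
    rw [classInner_irr_self χ₀.2, nilS_eq_mean (fun _ _ => rfl)] at h1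
    simp only [map_one, one_mul] at h1
    field_simp at h1
    exact h1.symm
  have hμ1 := Cfsg.Agent.Lib.Helper5.genChar_eq_one_of_pos hμgen
    (nilMu_pos hM hX hχ₀ h0 hcov) hmean
  have horth : ∀ ζ ζ' : IrrCharacter P,
      classInner (θ ζ) (θ ζ') = classInner (ζ : P → ℂ) (ζ' : P → ℂ) := by
    intro ζ ζ'
    rw [classInner_star hM hB hX hχ₀ (hθ ζ) (hθ ζ'), nilS_eq_mean]
    · unfold classInner
      congr 1
      apply Finset.sum_congr rfl; intro u _
      rw [hμ1 u, mul_one]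
    · intro g h
      show (ζ : P → ℂ) (h * g * h⁻¹) * conj ((ζ' : P → ℂ) (h * g * h⁻¹)) = _
      rw [irr_classFunction ζ g h, irr_classFunction ζ' g h]
  have hreg : ∀ ζ : IrrCharacter P, ∀ s : G, IsPRegular p s →
      θ ζ s = (ζ : P → ℂ) 1 * (χ₀ : G → ℂ) s := by
    intro ζ s hs
    exact (hθ ζ).apply_regular hM hB hχ₀ hX (fun b _ => by rw [hU1 b]) hs
  have hirr : ∀ ζ : IrrCharacter P, IsIrrCharacter G (θ ζ) := by
    intro ζ
    have hn : classInner (θ ζ) (θ ζ) = 1 := by rw [horth, classInner_irr_self ζ.2]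
    rcases Cfsg.Agent.Lib.Helper32.genChar_norm_one (hgen ζ) hn with h2 | h2
    · exact h2
    · exfalso
      obtain ⟨m, hm, hm1⟩ := Cfsg.Agent.Lib.Helper32.irr_apply_one h2
      obtain ⟨n, hn, hn1⟩ := Cfsg.Agent.Lib.Helper32.irr_apply_one χ₀.2
      obtain ⟨l, hl, hl1⟩ := Cfsg.Agent.Lib.Helper32.irr_apply_one ζ.2
      rw [Pi.neg_apply, hreg ζ 1 (by unfold IsPRegular; simp [hM.1.one_lt.ne']), hn1, hl1] at hm1
      have : ((l * n + m : ℕ) : ℂ) = 0 := by push_cast; linear_combination -hm1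
      have h3 : l * n + m = 0 := by exact_mod_cast this
      omega
  have hmem : ∀ ζ : IrrCharacter P, (⟨θ ζ, hirr ζ⟩ : IrrCharacter G) ∈ B := by
    intro ζ
    by_contra hnot
    have := (hθ ζ).classInner_eq_zero hM hB hχ₀ hX (ψ := ⟨θ ζ, hirr ζ⟩) hnot
    rw [show ((⟨θ ζ, hirr ζ⟩ : IrrCharacter G) : G → ℂ) = θ ζ from rfl, horth,
      classInner_irr_self ζ.2] at this
    exact one_ne_zero this
  refine ⟨fun ζ => ⟨θ ζ, hirr ζ⟩, hmem, ?_, ?_, hreg⟩
  · intro ζ ζ' h
    by_contra hne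
    have h1 : θ ζ = θ ζ' := congrArg Subtype.val h
    have h2 := horth ζ ζ'
    rw [← h1, horth, classInner_irr_self ζ.2,
      classInner_irr_ne ζ.2 ζ'.2 (fun h => hne (Subtype.ext h))] at h2
    exact one_ne_zero h2
  · intro ψ hψ
    by_contra hcon
    push Not at hcon
    have hz : ∀ ζ : IrrCharacter P, classInner (θ ζ) (ψ : G → ℂ) = 0 := fun ζ =>
      classInner_irr_ne (hirr ζ) ψ.2 (fun h => hcon ζ (Subtype.ext h))
    have honeψ : IsStar p M X (fun x b => (fun _ : P => (1 : ℂ)) (U x b)) (ψ : G → ℂ)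
        (ψ : G → ℂ) := isStar_one hM X (irr_classFunction ψ)
    have hz' : ∀ ζ : IrrCharacter P,
        nilS p M B X U (fun v => (ζ : P → ℂ) v) (χ₀ : G → ℂ) (ψ : G → ℂ) = 0 := by
      intro ζ
      have h1 := classInner_star (U := U) (η := (ζ : P → ℂ)) (η' := fun _ => 1) hM hB hX hχ₀ (hθ ζ) honeψ
      simp only [map_one, mul_one] at h1
      rw [← h1, hz ζ]
    have h2 : nilS p M B X U (fun v => ∑ ζ : IrrCharacter P, conj ((ζ : P → ℂ) 1) * (ζ : P → ℂ) v)
        (χ₀ : G → ℂ) (ψ : G → ℂ) = 0 := by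
      rw [nilS_sum]
      apply Finset.sum_eq_zero; intro ζ _
      rw [hz' ζ, mul_zero]
    have h3 : classInner (pRegularPart p (χ₀ : G → ℂ)) (ψ : G → ℂ) * (Nat.card P : ℂ)
        = nilS p M B X U (fun v => ∑ ζ : IrrCharacter P, conj ((ζ : P → ℂ) 1) * (ζ : P → ℂ) v)
        (χ₀ : G → ℂ) (ψ : G → ℂ) := by
      rw [(isStar_pReg hM hX (irr_classFunction χ₀)).classInner_eq hM hX
        (isStar_one hM X (irr_classFunction ψ))]
      unfold nilS
      rw [Finset.sum_mul]
      apply Finset.sum_congr rfl; intro x hx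
      rw [Finset.sum_mul]
      apply Finset.sum_congr rfl; intro b _
      by_cases hind : IsInducedBlock M (Cx x) b B
      · rw [if_pos hind, if_pos hind.1]
        have h4 : ∑ ζ : IrrCharacter P, conj ((ζ : P → ℂ) 1) * (ζ : P → ℂ) (U x b)
            = if x = 1 then (Nat.card P : ℂ) else 0 := by
          have h5 := sum_irr_mul_conj (U x b) (1 : P)
          have h6 : ∑ ζ : IrrCharacter P, conj ((ζ : P → ℂ) 1) * (ζ : P → ℂ) (U x b)
              = ∑ ζ : IrrCharacter P, (ζ : P → ℂ) (U x b) * conj ((ζ : P → ℂ) 1) :=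
            Finset.sum_congr rfl (fun ζ _ => mul_comm _ _)
          rw [h6, h5]
          by_cases hx1 : x = 1
          · subst hx1
            rw [if_pos rfl, hU1 b, if_pos (IsConj.refl _)]
            congr 1
            have : Subgroup.centralizer ({1} : Set P) = ⊤ := by
              rw [eq_top_iff]
              intro g _
              rw [Subgroup.mem_centralizer_iff]
              intro h hh
              rw [Set.mem_singleton_iff.1 hh]; simp
            rw [this, Subgroup.card_top]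
          · rw [if_neg hx1, if_neg]
            intro hc
            apply hx1
            apply hU1' x hx b hind
            exact isConj_one_right.1 hc.symm
        beta_reduce
        rw [h4]
        split_ifs <;> simp
        ring
      · rw [if_neg hind]
        by_cases hb : IsPBlock M b
        · rw [if_pos hb, mS_eq_zero_of_left (fun s hs =>
            Th_eq_zero_of_not_ind hM hB hχ₀ (hX.pow x hx) hb hind hs), mul_zero, zero_mul]
        · rw [if_neg hb, zero_mul]
    rw [h2] at h3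
    have h7 : mC p (χ₀ : G → ℂ) (ψ : G → ℂ) = 0 := by
      rcases mul_eq_zero.1 h3 with h | h
      · exact h
      · exact absurd h hcP
    have h8 := kC_spec hM (B := B) χ₀ hψ
    rw [h7, mul_zero] at h8
    exact (kC_of_height_zero hM hB hχ₀ hψ h0).2 (by exact_mod_cast h8)

end Cfsg.Agent.Lib.Helper82
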